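import Cfsg.Agent.Lib.Helper86.L37.OrdD5

/-! Kernel check of the coset table of `⟨a, b, c, e, f⟩` over the trivial subgroup. -/

set_option autoImplicit false

namespace Cfsg.Agent.Lib.Helper86.ONOrdC5

open Cfsg.Agent.Lib.Helper86.CosetCert Cfsg.Agent.Lib.Helper86.ONOrdD5

/-- the relators -/
def R : List (List ℕ) := [[0, 0], [0, 1, 0, 1, 0, 1], [0, 2, 0, 2], [0, 3, 0, 3], [0, 4, 0, 4], [1, 1], [1, 2, 1, 2, 1, 2], [1, 3, 1, 3], [1, 4, 1, 4], [2, 2], [2, 3, 2, 3], [2, 4, 2, 4], [3, 3], [3, 4, 3, 4, 3, 4], [4, 4]]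

set_option maxRecDepth 100000 in
theorem chk : rangeOK ctx 0 144 = true := by decide +kernel

theorem slots : slotsOK ctx R = true := by decide +kernel

theorem hchk (i : ℕ) (hi : i < ctx.n) : cosetOK ctx i = true :=
  rangeOK_spec ctx 0 144 chk i (Nat.zero_le _) (by rw [Nat.zero_add]; exact hi)

end Cfsg.Agent.Lib.Helper86.ONOrdC5
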