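import Cfsg.Agent.Lib.Helper86.L37.OrdD6

/-! Kernel check of the coset table of `⟨a, …, f⟩` over `⟨a, b, c, e, f⟩`, part 1. -/

set_option autoImplicit false

namespace Cfsg.Agent.Lib.Helper86.ONOrdC6b

open Cfsg.Agent.Lib.Helper86.CosetCert Cfsg.Agent.Lib.Helper86.ONOrdD6

set_option maxRecDepth 100000 in
theorem b13 : rangeOK ctx 6656 512 = true := by decide +kernel

set_option maxRecDepth 100000 in
theorem b14 : rangeOK ctx 7168 512 = true := by decide +kernel

set_option maxRecDepth 100000 in
theorem b15 : rangeOK ctx 7680 512 = true := by decide +kernel

set_option maxRecDepth 100000 in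
theorem b16 : rangeOK ctx 8192 512 = true := by decide +kernel

set_option maxRecDepth 100000 in
theorem b17 : rangeOK ctx 8704 512 = true := by decide +kernel

set_option maxRecDepth 100000 in
theorem b18 : rangeOK ctx 9216 512 = true := by decide +kernel

set_option maxRecDepth 100000 in
theorem b19 : rangeOK ctx 9728 512 = true := by decide +kernel

set_option maxRecDepth 100000 in
theorem b20 : rangeOK ctx 10240 512 = true := by decide +kernel

set_option maxRecDepth 100000 in
theorem b21 : rangeOK ctx 10752 512 = true := by decide +kernel

set_option maxRecDepth 100000 in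
theorem b22 : rangeOK ctx 11264 512 = true := by decide +kernel

set_option maxRecDepth 100000 in
theorem b23 : rangeOK ctx 11776 512 = true := by decide +kernel

set_option maxRecDepth 100000 in
theorem b24 : rangeOK ctx 12288 512 = true := by decide +kernel

set_option maxRecDepth 100000 in
theorem b25 : rangeOK ctx 12800 512 = true := by decide +kernel

end Cfsg.Agent.Lib.Helper86.ONOrdC6b
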