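import Cfsg.Agent.Lib.Helper86.L37.OrdD6

/-! Kernel check of the coset table of `⟨a, …, f⟩` over `⟨a, b, c, e, f⟩`, part 2. -/

set_option autoImplicit false

namespace Cfsg.Agent.Lib.Helper86.ONOrdC6c

open Cfsg.Agent.Lib.Helper86.CosetCert Cfsg.Agent.Lib.Helper86.ONOrdD6

set_option maxRecDepth 100000 in
theorem b26 : rangeOK ctx 13312 512 = true := by decide +kernel

set_option maxRecDepth 100000 in
theorem b27 : rangeOK ctx 13824 512 = true := by decide +kernel

set_option maxRecDepth 100000 in
theorem b28 : rangeOK ctx 14336 512 = true := by decide +kernel

set_option maxRecDepth 100000 in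
theorem b29 : rangeOK ctx 14848 512 = true := by decide +kernel

set_option maxRecDepth 100000 in
theorem b30 : rangeOK ctx 15360 512 = true := by decide +kernel

set_option maxRecDepth 100000 in
theorem b31 : rangeOK ctx 15872 512 = true := by decide +kernel

set_option maxRecDepth 100000 in
theorem b32 : rangeOK ctx 16384 512 = true := by decide +kernel

set_option maxRecDepth 100000 in
theorem b33 : rangeOK ctx 16896 512 = true := by decide +kernel

set_option maxRecDepth 100000 in
theorem b34 : rangeOK ctx 17408 512 = true := by decide +kernel

set_option maxRecDepth 100000 in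
theorem b35 : rangeOK ctx 17920 512 = true := by decide +kernel

set_option maxRecDepth 100000 in
theorem b36 : rangeOK ctx 18432 512 = true := by decide +kernel

set_option maxRecDepth 100000 in
theorem b37 : rangeOK ctx 18944 512 = true := by decide +kernel

set_option maxRecDepth 100000 in
theorem b38 : rangeOK ctx 19456 512 = true := by decide +kernel

end Cfsg.Agent.Lib.Helper86.ONOrdC6c
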