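import Cfsg.Agent.Lib.Helper86.L37.OrdD6

/-! Kernel check of the coset table of `⟨a, …, f⟩` over `⟨a, b, c, e, f⟩`, part 3. -/

set_option autoImplicit false

namespace Cfsg.Agent.Lib.Helper86.ONOrdC6d

open Cfsg.Agent.Lib.Helper86.CosetCert Cfsg.Agent.Lib.Helper86.ONOrdD6

set_option maxRecDepth 100000 in
theorem b39 : rangeOK ctx 19968 512 = true := by decide +kernel

set_option maxRecDepth 100000 in
theorem b40 : rangeOK ctx 20480 512 = true := by decide +kernel

set_option maxRecDepth 100000 in
theorem b41 : rangeOK ctx 20992 512 = true := by decide +kernel

set_option maxRecDepth 100000 in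
theorem b42 : rangeOK ctx 21504 512 = true := by decide +kernel

set_option maxRecDepth 100000 in
theorem b43 : rangeOK ctx 22016 512 = true := by decide +kernel

set_option maxRecDepth 100000 in
theorem b44 : rangeOK ctx 22528 512 = true := by decide +kernel

set_option maxRecDepth 100000 in
theorem b45 : rangeOK ctx 23040 512 = true := by decide +kernel

set_option maxRecDepth 100000 in
theorem b46 : rangeOK ctx 23552 512 = true := by decide +kernel

set_option maxRecDepth 100000 in
theorem b47 : rangeOK ctx 24064 512 = true := by decide +kernel

set_option maxRecDepth 100000 in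
theorem b48 : rangeOK ctx 24576 512 = true := by decide +kernel

set_option maxRecDepth 100000 in
theorem b49 : rangeOK ctx 25088 512 = true := by decide +kernel

set_option maxRecDepth 100000 in
theorem blast : rangeOK ctx 25600 468 = true := by decide +kernel

end Cfsg.Agent.Lib.Helper86.ONOrdC6d
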