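import Cfsg.Agent.Lib.Helper86.L37.OrdC6a
import Cfsg.Agent.Lib.Helper86.L37.OrdC6b
import Cfsg.Agent.Lib.Helper86.L37.OrdC6c
import Cfsg.Agent.Lib.Helper86.L37.OrdC6d

/-! Kernel check of the coset table of `⟨a, …, f⟩` over `⟨a, b, c, e, f⟩`. -/

set_option autoImplicit false

namespace Cfsg.Agent.Lib.Helper86.ONOrdC6

open Cfsg.Agent.Lib.Helper86.CosetCert Cfsg.Agent.Lib.Helper86.ONOrdD6

/-- the relators -/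
def R : List (List ℕ) := [[0, 0], [0, 1, 0, 1, 0, 1], [0, 2, 0, 2], [0, 3, 0, 3], [0, 4, 0, 4], [0, 5, 0, 5], [1, 1], [1, 2, 1, 2, 1, 2], [1, 3, 1, 3], [1, 4, 1, 4], [1, 5, 1, 5], [2, 2], [2, 3, 2, 3, 2, 3, 2, 3, 2, 3, 2, 3, 2, 3, 2, 3], [2, 4, 2, 4], [2, 5, 2, 5], [3, 3], [3, 4, 3, 4, 3, 4], [3, 5, 3, 5], [4, 4], [4, 5, 4, 5, 4, 5], [5, 5], [0, 5, 3, 2, 3, 2, 3, 2, 3, 2]]

theorem slots : slotsOK ctx R = true := by decide +kernel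

theorem blocks : ∀ j, j < 50 → rangeOK ctx (512 * j) 512 = true
  | 0, _ => ONOrdC6a.b0
  | 1, _ => ONOrdC6a.b1
  | 2, _ => ONOrdC6a.b2
  | 3, _ => ONOrdC6a.b3
  | 4, _ => ONOrdC6a.b4
  | 5, _ => ONOrdC6a.b5
  | 6, _ => ONOrdC6a.b6
  | 7, _ => ONOrdC6a.b7
  | 8, _ => ONOrdC6a.b8
  | 9, _ => ONOrdC6a.b9
  | 10, _ => ONOrdC6a.b10
  | 11, _ => ONOrdC6a.b11
  | 12, _ => ONOrdC6a.b12
  | 13, _ => ONOrdC6b.b13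
  | 14, _ => ONOrdC6b.b14
  | 15, _ => ONOrdC6b.b15
  | 16, _ => ONOrdC6b.b16
  | 17, _ => ONOrdC6b.b17
  | 18, _ => ONOrdC6b.b18
  | 19, _ => ONOrdC6b.b19
  | 20, _ => ONOrdC6b.b20
  | 21, _ => ONOrdC6b.b21
  | 22, _ => ONOrdC6b.b22
  | 23, _ => ONOrdC6b.b23
  | 24, _ => ONOrdC6b.b24
  | 25, _ => ONOrdC6b.b25
  | 26, _ => ONOrdC6c.b26
  | 27, _ => ONOrdC6c.b27
  | 28, _ => ONOrdC6c.b28
  | 29, _ => ONOrdC6c.b29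
  | 30, _ => ONOrdC6c.b30
  | 31, _ => ONOrdC6c.b31
  | 32, _ => ONOrdC6c.b32
  | 33, _ => ONOrdC6c.b33
  | 34, _ => ONOrdC6c.b34
  | 35, _ => ONOrdC6c.b35
  | 36, _ => ONOrdC6c.b36
  | 37, _ => ONOrdC6c.b37
  | 38, _ => ONOrdC6c.b38
  | 39, _ => ONOrdC6d.b39
  | 40, _ => ONOrdC6d.b40
  | 41, _ => ONOrdC6d.b41
  | 42, _ => ONOrdC6d.b42
  | 43, _ => ONOrdC6d.b43
  | 44, _ => ONOrdC6d.b44
  | 45, _ => ONOrdC6d.b45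
  | 46, _ => ONOrdC6d.b46
  | 47, _ => ONOrdC6d.b47
  | 48, _ => ONOrdC6d.b48
  | 49, _ => ONOrdC6d.b49
  | (k + 50), h => absurd h (by omega)

theorem hchk (i : ℕ) (hi : i < ctx.n) : cosetOK ctx i = true :=
  rangeOK_all ctx 512 50 468 blocks ONOrdC6d.blast (by norm_num) i hi

end Cfsg.Agent.Lib.Helper86.ONOrdC6
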