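import Cfsg.Agent.Lib.Helper28.PresON
import Cfsg.Agent.Lib.Helper86.L37.OrdC5
import Cfsg.Agent.Lib.Helper86.L37.OrdC6

/-!
# The subgroup `⟨a, …, f⟩` of the presented O'Nan group has at most `3753792` elements

Two coset-table certificates: `⟨a, …, f⟩` over `⟨a, b, c, e, f⟩` (26068 cosets) and
`⟨a, b, c, e, f⟩` over the trivial subgroup (144 cosets).
-/

set_option autoImplicit false

namespace Cfsg.Agent.Lib.Helper86.ONOrd

open Cfsg.Spor Cfsg.Agent.Lib.Helper28 Cfsg.Agent.Lib.Helper28.TCSound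
open Cfsg.Agent.Lib.Helper28.TCPres Cfsg.Agent.Lib.Helper86.CosetCert

/-- the presented O'Nan group -/
abbrev G := Grp ON.edges ON.extra

/-- the letters `g, g⁻¹, a, …, f` -/
noncomputable abbrev lt : ℕ → G := ltG ON.edges ON.extra PresON.dec

theorem lt_sq {y : ℕ} (h2 : 2 ≤ y) (h8 : y < 8) : lt y * lt y = 1 := by
  have h := ltG_inv PresON.ok y h8
  have hi : PresON.inv y = y := by interval_cases y <;> rfl
  rw [hi] at h
  have h' : lt y * lt y = (lt y)⁻¹ * lt y := congrArg (· * lt y) h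
  rw [h', inv_mul_cancel]

/-- the generators attached to a map of letters -/
noncomputable abbrev gg (em : ℕ → ℕ) : ℕ → G := fun x => lt (em x)

theorem ev_wp (em : ℕ → ℕ) (w : List ℕ) : ev (gg em) w = wp lt (w.map em) := by
  induction w with
  | nil => rfl
  | cons x w ih => rw [ev_cons, List.map_cons, wp_cons, ih]

/-- every word of `R` is the square of a letter or is mapped to a relator of the O'Nan group -/
def relsOK (em : ℕ → ℕ) (k : ℕ) (R : List (List ℕ)) : Bool :=
  R.all fun w =>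
    (match w with
      | [x, y] => Nat.beq x y && Nat.blt x k
      | _ => false) || decide (w.map em ∈ PresON.relW)

theorem relsOK_spec (em : ℕ → ℕ) (k : ℕ) (R : List (List ℕ)) (h : relsOK em k R = true)
    (hem : ∀ x, x < k → 2 ≤ em x ∧ em x < 8) : ∀ w ∈ R, ev (gg em) w = 1 := by
  intro w hw
  unfold relsOK at h
  rw [List.all_eq_true] at h
  have h1 := h w hw
  rw [Bool.or_eq_true, decide_eq_true_eq] at h1
  rcases h1 with h1 | h1
  · rcases w with _ | ⟨x, _ | ⟨y, _ | ⟨z, w⟩⟩⟩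
    · exact absurd h1 (by simp)
    · exact absurd h1 (by simp)
    · simp only [Bool.and_eq_true, Nat.beq_eq, Nat.blt_eq] at h1
      obtain ⟨rfl, hx⟩ := h1
      rw [ev_cons, ev_cons, ev_nil, mul_one]
      exact lt_sq (hem x hx).1 (hem x hx).2
    · exact absurd h1 (by simp)
  · rw [ev_wp]
    exact relG PresON.ok _ h1

/-- the letters of `a, b, c, e, f` -/
def e5 (x : ℕ) : ℕ := if x < 3 then x + 2 else x + 3

/-- the letters of `a, …, f` -/
def e6 (x : ℕ) : ℕ := x + 2

theorem e5_bd (x : ℕ) (hx : x < 5) : 2 ≤ e5 x ∧ e5 x < 8 := by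
  unfold e5
  split <;> omega

theorem e6_bd (x : ℕ) (hx : x < 6) : 2 ≤ e6 x ∧ e6 x < 8 := by
  unfold e6
  omega

/-- the subgroup `⟨a, b, c, e, f⟩` -/
noncomputable def K5 : Subgroup G := Subgroup.closure (gg e5 '' {x | x < 5})

/-- the subgroup `⟨a, …, f⟩` -/
noncomputable def H6 : Subgroup G := Subgroup.closure (gg e6 '' {x | x < 6})

theorem rels5 : relsOK e5 5 ONOrdC5.R = true := by decide +kernel

theorem rels6 : relsOK e6 6 ONOrdC6.R = true := by decide +kernel

theorem K5_card : Finite K5 ∧ Nat.card K5 ≤ 144 := by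
  have h := card_closure_le ONOrdD5.ctx (gg e5) ⊥ ONOrdC5.hchk
    (fun x hx => lt_sq (e5_bd x hx).1 (e5_bd x hx).2)
    (slotsOK_spec (gg e5) ONOrdD5.ctx ONOrdC5.R ONOrdC5.slots
      (relsOK_spec e5 5 ONOrdC5.R rels5 e5_bd))
    (fun s hs => by
      change s ∈ ([] : List (List ℕ)) at hs
      exact absurd hs List.not_mem_nil)
    (by decide) ⊥ 1 (le_of_eq Subgroup.card_bot) le_rfl
  exact h

theorem gen_mem {x : ℕ} (hx : x < 5) : gg e5 x ∈ K5 :=
  Subgroup.subset_closure ⟨x, hx, rfl⟩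

theorem H6_card : Finite H6 ∧ Nat.card H6 ≤ 3753792 := by
  obtain ⟨hfin, hc⟩ := K5_card
  have h := card_closure_le ONOrdD6.ctx (gg e6) K5 ONOrdC6.hchk
    (fun x hx => lt_sq (e6_bd x hx).1 (e6_bd x hx).2)
    (slotsOK_spec (gg e6) ONOrdD6.ctx ONOrdC6.R ONOrdC6.slots
      (relsOK_spec e6 6 ONOrdC6.R rels6 e6_bd))
    (fun s hs => by
      change s ∈ [[0], [1], [2], [4], [5]] at hs
      simp only [List.mem_cons, List.not_mem_nil, or_false] at hs
      rcases hs with rfl | rfl | rfl | rfl | rfl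
      · exact ⟨by decide, by rw [ev_cons, ev_nil, mul_one]; exact gen_mem (x := 0) (by norm_num)⟩
      · exact ⟨by decide, by rw [ev_cons, ev_nil, mul_one]; exact gen_mem (x := 1) (by norm_num)⟩
      · exact ⟨by decide, by rw [ev_cons, ev_nil, mul_one]; exact gen_mem (x := 2) (by norm_num)⟩
      · exact ⟨by decide, by rw [ev_cons, ev_nil, mul_one]; exact gen_mem (x := 3) (by norm_num)⟩
      · exact ⟨by decide, by rw [ev_cons, ev_nil, mul_one]; exact gen_mem (x := 4) (by norm_num)⟩)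
    (by decide) K5 144 hc le_rfl
  exact h

end Cfsg.Agent.Lib.Helper86.ONOrd
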