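import Cfsg.Agent.Lib.Helper28.T1692LT
import Cfsg.Agent.Lib.Helper86.L37.ONData
import Cfsg.Agent.Lib.Helper86.Sp4.PermChain
import Cfsg.Agent.Lib.Helper86.L37.PSLPts

/-!
# Kernel checks for the action of `⟨a, …, f⟩ ≤ O'N` on 57 points and its comparison with `PSL₃(7)`
-/

set_option autoImplicit false

namespace Cfsg.Agent.Lib.Helper86.ONL37Chk

open Cfsg.Agent.Lib.Helper86.ONL37Data Cfsg.Agent.Lib.Helper86.PermChain
open Cfsg.Agent.Lib.Helper86.SL37 Cfsg.Agent.Lib.Helper86.PSL37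
open Cfsg.Agent.Lib.Helper28.T1692LT

/-- the checks at the point `q` of the orbit: the letters `a, …, f` keep it in the orbit, and the
five generators of the subgroup of index 2 act on the points of the plane as their tables say -/
def chkO (q : ℕ) : Bool :=
  Nat.ble 116376 (tp 2 q) && Nat.ble 116376 (tp 3 q) && Nat.ble 116376 (tp 4 q) &&
    Nat.ble 116376 (tp 5 q) && Nat.ble 116376 (tp 6 q) && Nat.ble 116376 (tp 7 q) &&
    Nat.blt (bkN q) 57 &&
    Nat.beq (bkN (tp 2 (tp 3 q))) (tb 0 (bkN q)) && Nat.beq (bkN (tp 3 (tp 4 q))) (tb 1 (bkN q)) &&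
    Nat.beq (bkN (tp 4 (tp 5 q))) (tb 2 (bkN q)) && Nat.beq (bkN (tp 5 (tp 6 q))) (tb 3 (bkN q)) &&
    Nat.beq (bkN (tp 6 (tp 7 q))) (tb 4 (bkN q))

set_option maxRecDepth 100000 in
theorem chkO_all : allLt (fun j => allLt (fun i =>
    Nat.ble 6384 (512 * j + i) || chkO (116376 + (512 * j + i))) 512) 13 = true := by
  decide +kernel

theorem chkO_of {i : ℕ} (hi : i < 6384) : chkO (116376 + i) = true := by
  have h1 := allLt_spec _ 13 chkO_all (i / 512) (by omega)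
  have h2 := allLt_spec _ 512 h1 (i % 512) (Nat.mod_lt _ (by norm_num))
  rw [Nat.div_add_mod, Bool.or_eq_true, Nat.ble_eq] at h2
  rcases h2 with h | h
  · omega
  · exact h

theorem chk_orb {i : ℕ} (hi : i < 6384) {y : ℕ} (hy2 : 2 ≤ y) (hy : y < 8) :
    116376 ≤ tp y (116376 + i) := by
  have h := chkO_of hi
  unfold chkO at h
  simp only [Bool.and_eq_true, Nat.ble_eq] at h
  obtain ⟨⟨⟨⟨⟨⟨⟨⟨⟨⟨⟨h2, h3⟩, h4⟩, h5⟩, h6⟩, h7⟩, -⟩, -⟩, -⟩, -⟩, -⟩, -⟩ := h
  interval_cases y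
  exacts [h2, h3, h4, h5, h6, h7]

theorem chk_bk {i : ℕ} (hi : i < 6384) : bkN (116376 + i) < 57 := by
  have h := chkO_of hi
  unfold chkO at h
  simp only [Bool.and_eq_true, Nat.blt_eq] at h
  exact h.1.1.1.1.1.2

theorem chk_blocks {i : ℕ} (hi : i < 6384) {k : ℕ} (hk : k < 5) :
    bkN (tp (k + 2) (tp (k + 3) (116376 + i))) = tb k (bkN (116376 + i)) := by
  have h := chkO_of hi
  unfold chkO at h
  simp only [Bool.and_eq_true, Nat.beq_eq] at h
  obtain ⟨⟨⟨⟨⟨-, h0⟩, h1⟩, h2⟩, h3⟩, h4⟩ := h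
  interval_cases k
  exacts [h0, h1, h2, h3, h4]

theorem chk_wit : bkN wit1 = bkN wit2 ∧ bkN (tp 2 wit1) % 57 ≠ bkN (tp 2 wit2) % 57 ∧
    116376 ≤ wit1 ∧ wit1 < 122760 ∧ 116376 ≤ wit2 ∧ wit2 < 122760 := by decide +kernel

theorem chk_rep : ∀ p, p < 57 → bkN (116376 + rp p) = p ∧ rp p < 6384 := by decide +kernel

theorem chk_gens : ∀ k, k < 5 → ∀ p, p < 57 →
    tb k p < 57 ∧ tb (k + 5) p < 57 ∧ tb (k + 5) (tb k p) = p ∧ tb k (tb (k + 5) p) = p := by
  decide +kernel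

set_option maxRecDepth 100000 in
theorem chk_slp : allLt (fun k => decide (k < 10) || slpOK tb si sj 57 k) 381 = true := by
  decide +kernel

set_option maxRecDepth 100000 in
theorem chk_lv : lvlsOK tb 57 381 [] lv = true := by decide +kernel

theorem chk_prod : lvlsProd lv = 1876896 := by decide +kernel

theorem chk_det : ∀ j, j < 5 → detN (mc j) = 1 := by decide +kernel

theorem chk_act : ∀ j, j < 5 → ∀ p, p < 57 → actN (mc j) p = tb j p := by decide +kernel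

end Cfsg.Agent.Lib.Helper86.ONL37Chk
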