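import Cfsg.Agent.Lib.Helper29.OrdBasic
import Cfsg.Agent.Lib.Helper86.L37.ONPerm
import Cfsg.Agent.Lib.Helper86.L37.ONChk
import Cfsg.Agent.Lib.Helper86.L37.ONOrd

/-!
# The subgroup `H = ⟨a, …, f⟩ = L₃(7):2` of the presented O'Nan group

`H` (index 122760) has an orbit of length 6384 on the cosets; the products `ab, bc, cd, de, ef`
permute 57 blocks of this orbit as `PSL₃(7)` permutes the points of the projective plane, and
`a` does not permute these blocks.  Together with `|H| ≤ 3753792` this gives a normal subgroup of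
index 2 isomorphic to `PSL₃(7)`.
-/

set_option autoImplicit false

namespace Cfsg.Agent.Lib.Helper86.ONL37

open Cfsg.Agent.Lib.Helper86.ONL37Data Cfsg.Agent.Lib.Helper86.ONL37Chk
open Cfsg.Agent.Lib.Helper86.PermChain Cfsg.Agent.Lib.Helper86.ONPerm
open Cfsg.Agent.Lib.Helper86.SL37 Cfsg.Agent.Lib.Helper86.PSL37
open Cfsg.Agent.Lib.Helper86.ONOrd (gg e6 H6 lt_sq H6_card)
open Cfsg.Agent.Lib.Helper29.OrdBasic Cfsg.Spor
open Cfsg.Agent.Lib.Helper28 Cfsg.Agent.Lib.Helper28.TCSound Cfsg.Agent.Lib.Helper28.TCPres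
open Cfsg.Agent.Lib.Helper28.T1692LT (tp)

/-- the subgroup `H = ⟨a, …, f⟩` -/
noncomputable abbrev HH : Subgroup G := H6

/-- the orbit of length 6384 -/
def O : Set (Fin 122760) := {q | 116376 ≤ q.1}

theorem gg_mem {x : ℕ} (hx : x < 6) : gg e6 x ∈ HH := Subgroup.subset_closure ⟨x, hx, rfl⟩

theorem φ_gg {x : ℕ} (hx : x < 6) (a : Fin 122760) :
    ((φ (gg e6 x) a : Fin 122760) : ℕ) = tp (x + 2) a.1 :=
  φ_apply (y := x + 2) (by omega) (by omega) a

theorem gg_inv {x : ℕ} (hx : x < 6) : (gg e6 x)⁻¹ = gg e6 x :=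
  inv_eq_of_mul_eq_one_left (lt_sq (y := x + 2) (by omega) (by omega))

theorem gen_O {x : ℕ} (hx : x < 6) {q : Fin 122760} (hq : q ∈ O) : φ (gg e6 x) q ∈ O := by
  change 116376 ≤ ((φ (gg e6 x) q : Fin 122760) : ℕ)
  rw [φ_gg hx]
  have hq' : 116376 ≤ q.1 := hq
  obtain ⟨i, hi⟩ : ∃ i, q.1 = 116376 + i := ⟨q.1 - 116376, by omega⟩
  rw [hi]
  exact chk_orb (by have := q.2; omega) (by omega) (by omega)

theorem O_inv' {h : G} (hh : h ∈ HH) : ∀ q ∈ O, φ h q ∈ O ∧ φ h⁻¹ q ∈ O := by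
  induction hh using Subgroup.closure_induction with
  | mem x hx =>
    obtain ⟨i, hi, rfl⟩ := hx
    intro q hq
    rw [gg_inv hi]
    exact ⟨gen_O hi hq, gen_O hi hq⟩
  | one =>
    intro q hq
    rw [inv_one, map_one]
    exact ⟨hq, hq⟩
  | mul x y _ _ ihx ihy =>
    intro q hq
    rw [mul_inv_rev, map_mul, map_mul, Equiv.Perm.mul_apply, Equiv.Perm.mul_apply]
    exact ⟨(ihx _ (ihy q hq).1).1, (ihy _ (ihx q hq).2).2⟩
  | inv x _ ih =>
    intro q hq
    rw [inv_inv]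
    exact ⟨(ih q hq).2, (ih q hq).1⟩

theorem O_inv {h : G} (hh : h ∈ HH) {q : Fin 122760} (hq : q ∈ O) : φ h q ∈ O :=
  (O_inv' hh q hq).1

/-- the block of a point -/
def bk (q : Fin 122760) : Fin 57 := ⟨bkN q.1 % 57, Nat.mod_lt _ (by norm_num)⟩

/-- `g` acts on the blocks by `π` -/
def Spec (g : G) (π : Equiv.Perm (Fin 57)) : Prop := ∀ q ∈ O, bk (φ g q) = π (bk q)

theorem bk_surj (p : Fin 57) : ∃ q ∈ O, bk q = p := by
  obtain ⟨h1, h2⟩ := chk_rep p.1 p.2
  refine ⟨⟨116376 + rp p.1, by omega⟩, ?_, ?_⟩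
  · change 116376 ≤ 116376 + rp p.1
    omega
  · apply Fin.ext
    change bkN (116376 + rp p.1) % 57 = p.1
    rw [h1, Nat.mod_eq_of_lt p.2]

theorem spec_unique {g : G} {π π' : Equiv.Perm (Fin 57)} (h : Spec g π) (h' : Spec g π') :
    π = π' := by
  apply Equiv.ext
  intro p
  obtain ⟨q, hq, rfl⟩ := bk_surj p
  rw [← h q hq, ← h' q hq]

theorem spec_one : Spec 1 1 := fun q _ => by rw [map_one]; rfl

theorem spec_mul {g₁ g₂ : G} {π₁ π₂ : Equiv.Perm (Fin 57)} (h₁ : Spec g₁ π₁) (h₂ : Spec g₂ π₂)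
    (hg₂ : g₂ ∈ HH) : Spec (g₁ * g₂) (π₁ * π₂) := by
  intro q hq
  rw [map_mul, Equiv.Perm.mul_apply, h₁ _ (O_inv hg₂ hq), h₂ q hq, Equiv.Perm.mul_apply]

theorem spec_inv {g : G} {π : Equiv.Perm (Fin 57)} (h : Spec g π) (hg : g ∈ HH) :
    Spec g⁻¹ π⁻¹ := by
  intro q hq
  have hq' := O_inv (HH.inv_mem hg) hq
  have := h _ hq'
  rw [← Equiv.Perm.mul_apply, ← map_mul, mul_inv_cancel, map_one, Equiv.Perm.one_apply] at this
  rw [this]
  exact (π.symm_apply_apply _).symm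

/-- the generators `ab, bc, cd, de, ef` of the subgroup of index 2 -/
noncomputable def xk (k : ℕ) : G := gg e6 k * gg e6 (k + 1)

theorem xk_mem {k : ℕ} (hk : k < 5) : xk k ∈ HH :=
  HH.mul_mem (gg_mem (by omega)) (gg_mem (by omega))

/-- the permutation of a generator on the blocks -/
def gperm (k : ℕ) (hk : k < 5) : Equiv.Perm (Fin 57) where
  toFun p := ⟨tb k p.1 % 57, Nat.mod_lt _ (by norm_num)⟩
  invFun p := ⟨tb (k + 5) p.1 % 57, Nat.mod_lt _ (by norm_num)⟩
  left_inv p := by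
    obtain ⟨h1, h2, h3, h4⟩ := chk_gens k hk p.1 p.2
    apply Fin.ext
    change tb (k + 5) (tb k p.1 % 57) % 57 = p.1
    rw [Nat.mod_eq_of_lt h1, h3, Nat.mod_eq_of_lt p.2]
  right_inv p := by
    obtain ⟨h1, h2, h3, h4⟩ := chk_gens k hk p.1 p.2
    apply Fin.ext
    change tb k (tb (k + 5) p.1 % 57) % 57 = p.1
    rw [Nat.mod_eq_of_lt h2, h4, Nat.mod_eq_of_lt p.2]

theorem gperm_apply (k : ℕ) (hk : k < 5) (p : Fin 57) :
    ((gperm k hk p : Fin 57) : ℕ) = tb k p.1 :=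
  Nat.mod_eq_of_lt (chk_gens k hk p.1 p.2).1

theorem gperm_inv_apply (k : ℕ) (hk : k < 5) (p : Fin 57) :
    (((gperm k hk)⁻¹ p : Fin 57) : ℕ) = tb (k + 5) p.1 :=
  Nat.mod_eq_of_lt (chk_gens k hk p.1 p.2).2.1

theorem spec_gen (k : ℕ) (hk : k < 5) : Spec (xk k) (gperm k hk) := by
  intro q hq
  have hq' : 116376 ≤ q.1 := hq
  obtain ⟨i, hi⟩ : ∃ i, q.1 = 116376 + i := ⟨q.1 - 116376, by omega⟩
  have hi' : i < 6384 := by have := q.2; omega
  have h1 : ((φ (xk k) q : Fin 122760) : ℕ) = tp (k + 2) (tp (k + 3) q.1) := by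
    unfold xk
    rw [map_mul, Equiv.Perm.mul_apply, φ_gg (by omega), φ_gg (by omega)]
  apply Fin.ext
  rw [gperm_apply]
  change bkN ((φ (xk k) q : Fin 122760) : ℕ) % 57 = tb k (bkN q.1 % 57)
  rw [h1, hi, chk_blocks hi' hk, Nat.mod_eq_of_lt (chk_bk hi')]
  exact Nat.mod_eq_of_lt (chk_gens k hk _ (chk_bk hi')).1

/-- the elements of `H` acting on the blocks -/
def TT : Subgroup G where
  carrier := {g | g ∈ HH ∧ ∃ π, Spec g π}
  one_mem' := ⟨HH.one_mem, 1, spec_one⟩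
  mul_mem' := by
    rintro a b ⟨ha, π₁, h₁⟩ ⟨hb, π₂, h₂⟩
    exact ⟨HH.mul_mem ha hb, π₁ * π₂, spec_mul h₁ h₂ hb⟩
  inv_mem' := by
    rintro a ⟨ha, π, h⟩
    exact ⟨HH.inv_mem ha, π⁻¹, spec_inv h ha⟩

theorem TT_le : TT ≤ HH := fun _ hg => hg.1

/-- the subgroup generated by `ab, bc, cd, de, ef` -/
noncomputable def N0 : Subgroup G := Subgroup.closure {x | ∃ k, k < 5 ∧ xk k = x}

theorem N0_le_TT : N0 ≤ TT := by
  unfold N0
  rw [Subgroup.closure_le]
  rintro _ ⟨k, hk, rfl⟩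
  exact ⟨xk_mem hk, gperm k hk, spec_gen k hk⟩

theorem N0_le : N0 ≤ HH := N0_le_TT.trans TT_le

theorem ex_spec (h : N0) : ∃ π, Spec h.1 π := (N0_le_TT h.2).2

/-- the action of the subgroup of index 2 on the 57 blocks -/
noncomputable def sig : N0 →* Equiv.Perm (Fin 57) :=
  MonoidHom.mk' (fun h => Classical.choose (ex_spec h)) (fun a b =>
    spec_unique (Classical.choose_spec (ex_spec (a * b)))
      (spec_mul (Classical.choose_spec (ex_spec a)) (Classical.choose_spec (ex_spec b))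
        (N0_le b.2)))

theorem sig_spec (h : N0) : Spec h.1 (sig h) := Classical.choose_spec (ex_spec h)

/-- the generators as elements of the subgroup -/
noncomputable def xg (k : ℕ) (hk : k < 5) : N0 := ⟨xk k, Subgroup.subset_closure ⟨k, hk, rfl⟩⟩

theorem sig_xg (k : ℕ) (hk : k < 5) : sig (xg k hk) = gperm k hk :=
  spec_unique (sig_spec _) (spec_gen k hk)

theorem card_range_ge : 1876896 ≤ Nat.card sig.range := by
  rw [← chk_prod]
  apply card_ge sig.range tb si sj 10 381 _ _ lv chk_lv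
  · intro k hk
    by_cases h5 : k < 5
    · exact ⟨sig (xg k h5), ⟨_, rfl⟩, fun p => by rw [sig_xg]; exact gperm_apply k h5 p⟩
    · have hk' : k - 5 < 5 := by omega
      refine ⟨(sig (xg (k - 5) hk'))⁻¹, sig.range.inv_mem ⟨_, rfl⟩, fun p => ?_⟩
      rw [sig_xg, gperm_inv_apply]
      have e : k - 5 + 5 = k := by omega
      rw [e]
  · intro k hk1 hk2
    have := allLt_spec _ 381 chk_slp k hk2
    simp only [Bool.or_eq_true, decide_eq_true_eq] at this
    rcases this with h | h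
    · omega
    · exact h

/-! ### comparison with `PSL₃(7)` -/

theorem sig_xg_tau (j : ℕ) (hj : j < 5) :
    sig (xg j hj) = tau (QuotientGroup.mk (mkS (mc j) (chk_det j hj))) := by
  apply Equiv.ext
  intro p
  apply Fin.ext
  rw [sig_xg, gperm_apply, tau_mkS, chk_act j hj p.1 p.2]

theorem range_le : sig.range ≤ tau.range := by
  have h : N0 ≤ ((tau.range).comap sig).map N0.subtype :=
    (Subgroup.closure_le _).2 (by
      rintro _ ⟨k, hk, rfl⟩
      exact ⟨xg k hk, ⟨_, (sig_xg_tau k hk).symm⟩, rfl⟩)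
  rintro _ ⟨x, rfl⟩
  obtain ⟨y, hy, hyx⟩ := h x.2
  have hyx' : y = x := Subtype.ext hyx
  rw [← hyx']
  exact hy

theorem t_not_mem : gg e6 0 ∉ TT := by
  rintro ⟨-, π, hπ⟩
  obtain ⟨h1, h2, h3, h4, h5, h6⟩ := chk_wit
  have e1 := hπ ⟨wit1, h4⟩ h3
  have e2 := hπ ⟨wit2, h6⟩ h5
  have e3 : bk ⟨wit1, h4⟩ = bk ⟨wit2, h6⟩ := by
    apply Fin.ext
    change bkN wit1 % 57 = bkN wit2 % 57
    rw [h1]
  rw [e3, ← e2] at e1
  have e4 := congrArg Fin.val e1
  change bkN ((φ (gg e6 0) ⟨wit1, h4⟩ : Fin 122760) : ℕ) % 57 =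
    bkN ((φ (gg e6 0) ⟨wit2, h6⟩ : Fin 122760) : ℕ) % 57 at e4
  rw [φ_gg (by norm_num), φ_gg (by norm_num)] at e4
  exact h2 e4

/-- **Main theorem**: `H` has a normal subgroup of index 2 isomorphic to `PSL₃(7)`, given the
upper bound for the order of `H`. -/
theorem main [Finite HH] (hcard : Nat.card HH ≤ 3753792) :
    ∃ N : Subgroup HH, N.Normal ∧ N.index = 2 ∧ Nonempty (N ≃* PSL) := by
  have hfin0 : Finite N0 :=
    Finite.of_injective (Subgroup.inclusion N0_le) (Subgroup.inclusion_injective N0_le)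
  have h1 : 1876896 ≤ Nat.card sig.range := card_range_ge
  have h2 : Nat.card sig.range ≤ Nat.card tau.range :=
    Nat.card_le_card_of_injective (Subgroup.inclusion range_le) (Subgroup.inclusion_injective _)
  have h3 : Nat.card tau.range ≤ Nat.card PSL := card_range_le tau
  have h4 := card_PSL_le
  have h5 : Nat.card sig.range ≤ Nat.card N0 := card_range_le sig
  have h6 : Nat.card (N0.subgroupOf HH) = Nat.card N0 :=
    Nat.card_congr (Subgroup.subgroupOfEquivOfLe N0_le).toEquiv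
  have h7 : N0.subgroupOf HH ≠ ⊤ := by
    intro h
    have ht : (⟨gg e6 0, gg_mem (by norm_num)⟩ : HH) ∈ N0.subgroupOf HH := by
      rw [h]
      trivial
    rw [Subgroup.mem_subgroupOf] at ht
    exact t_not_mem (N0_le_TT ht)
  have h8 : (N0.subgroupOf HH).index ≠ 1 := fun h => h7 (Subgroup.index_eq_one.1 h)
  have h9 : (N0.subgroupOf HH).index ≠ 0 := Subgroup.index_ne_zero_of_finite
  have h10 := Subgroup.card_mul_index (N0.subgroupOf HH)
  have h11 : (N0.subgroupOf HH).index = 2 := by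
    by_contra hne
    have h3' : 3 ≤ (N0.subgroupOf HH).index := by omega
    have : 1876896 * 3 ≤ Nat.card (N0.subgroupOf HH) * (N0.subgroupOf HH).index :=
      Nat.mul_le_mul (by omega) h3'
    omega
  have h12 : Nat.card N0 = 1876896 := by
    rw [h11] at h10
    omega
  have hinj : Function.Injective sig := (card_eq_and_injective sig 1876896 (by omega) h1).2
  have h13 : sig.range = tau.range := Subgroup.eq_of_le_of_card_ge range_le (by omega)
  have hinjτ : Function.Injective tau := (card_eq_and_injective tau 1876896 h4 (by omega)).2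
  refine ⟨N0.subgroupOf HH, Subgroup.normal_of_index_eq_two h11, h11, ⟨?_⟩⟩
  exact (((Subgroup.subgroupOfEquivOfLe N0_le).trans (MonoidHom.ofInjective hinj)).trans
    (MulEquiv.subgroupCongr h13)).trans (MonoidHom.ofInjective hinjτ).symm

theorem H_eq : (Subgroup.closure ({ON.a, ON.b, ON.c, ON.d, ON.e, ON.f} :
      Set (FreeGroup ON.Gen))).map
      (PresentedGroup.mk (coxRelators ON.edges ∪ {r | r ∈ ON.extra})) = HH := by
  have hS : ({ON.a, ON.b, ON.c, ON.d, ON.e, ON.f} : Set (FreeGroup ON.Gen)) =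
      {s | s ∈ [ON.a, ON.b, ON.c, ON.d, ON.e, ON.f]} := by
    ext s
    simp only [Set.mem_insert_iff, Set.mem_singleton_iff, Set.mem_ofPred_eq, List.mem_cons,
      List.not_mem_nil, or_false]
  rw [map_closure_eq PresON.ok _ [ON.a, ON.b, ON.c, ON.d, ON.e, ON.f] hS T1692LT.sgW
    (by decide +kernel)]
  unfold HH H6
  congr 1
  ext g
  constructor
  · rintro ⟨w, hw, rfl⟩
    change w ∈ [[2], [3], [4], [5], [6], [7]] at hw
    simp only [List.mem_cons, List.not_mem_nil, or_false] at hw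
    rcases hw with rfl | rfl | rfl | rfl | rfl | rfl
    · exact ⟨0, by norm_num, by rw [wp_cons, wp_nil, mul_one]; rfl⟩
    · exact ⟨1, by norm_num, by rw [wp_cons, wp_nil, mul_one]; rfl⟩
    · exact ⟨2, by norm_num, by rw [wp_cons, wp_nil, mul_one]; rfl⟩
    · exact ⟨3, by norm_num, by rw [wp_cons, wp_nil, mul_one]; rfl⟩
    · exact ⟨4, by norm_num, by rw [wp_cons, wp_nil, mul_one]; rfl⟩
    · exact ⟨5, by norm_num, by rw [wp_cons, wp_nil, mul_one]; rfl⟩
  · rintro ⟨x, hx, rfl⟩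
    have hx' : x < 6 := hx
    refine ⟨[x + 2], ?_, by rw [wp_cons, wp_nil, mul_one]; rfl⟩
    change [x + 2] ∈ [[2], [3], [4], [5], [6], [7]]
    interval_cases x <;> decide

/-- the statement for the subgroup as a closure of words of the free group -/
theorem main' : ∃ N : Subgroup ((Subgroup.closure ({ON.a, ON.b, ON.c, ON.d, ON.e, ON.f} :
      Set (FreeGroup ON.Gen))).map
      (PresentedGroup.mk (coxRelators ON.edges ∪ {r | r ∈ ON.extra}))),
    N.Normal ∧ N.index = 2 ∧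
      Nonempty (N ≃* Matrix.ProjectiveSpecialLinearGroup (Fin 3) (ZMod 7)) := by
  rw [H_eq]
  obtain ⟨hfin, hc⟩ := H6_card
  exact main hc

end Cfsg.Agent.Lib.Helper86.ONL37
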