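import Cfsg.Agent.Lib.Helper86.L37.OrdD6

/-! Kernel check of the coset table of `⟨a, …, f⟩` over `⟨a, b, c, e, f⟩`, part 0. -/

set_option autoImplicit false

namespace Cfsg.Agent.Lib.Helper86.ONOrdC6a

open Cfsg.Agent.Lib.Helper86.CosetCert Cfsg.Agent.Lib.Helper86.ONOrdD6

set_option maxRecDepth 100000 in
theorem b0 : rangeOK ctx 0 512 = true := by decide +kernel

set_option maxRecDepth 100000 in
theorem b1 : rangeOK ctx 512 512 = true := by decide +kernel

set_option maxRecDepth 100000 in
theorem b2 : rangeOK ctx 1024 512 = true := by decide +kernel

set_option maxRecDepth 100000 in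
theorem b3 : rangeOK ctx 1536 512 = true := by decide +kernel

set_option maxRecDepth 100000 in
theorem b4 : rangeOK ctx 2048 512 = true := by decide +kernel

set_option maxRecDepth 100000 in
theorem b5 : rangeOK ctx 2560 512 = true := by decide +kernel

set_option maxRecDepth 100000 in
theorem b6 : rangeOK ctx 3072 512 = true := by decide +kernel

set_option maxRecDepth 100000 in
theorem b7 : rangeOK ctx 3584 512 = true := by decide +kernel

set_option maxRecDepth 100000 in
theorem b8 : rangeOK ctx 4096 512 = true := by decide +kernel

set_option maxRecDepth 100000 in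
theorem b9 : rangeOK ctx 4608 512 = true := by decide +kernel

set_option maxRecDepth 100000 in
theorem b10 : rangeOK ctx 5120 512 = true := by decide +kernel

set_option maxRecDepth 100000 in
theorem b11 : rangeOK ctx 5632 512 = true := by decide +kernel

set_option maxRecDepth 100000 in
theorem b12 : rangeOK ctx 6144 512 = true := by decide +kernel

end Cfsg.Agent.Lib.Helper86.ONOrdC6a
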