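import Cfsg.Agent.Lib.Helper86.Sp4.Sp4Card

/-!
# `PSL₃(7)`: an upper bound for the order and the action on the 57 points of `PG(2,7)`
-/

set_option autoImplicit false

namespace Cfsg.Agent.Lib.Helper86.SL37

open Matrix

abbrev K := ZMod 7
abbrev V := Fin 3 → ZMod 7
abbrev SL := Matrix.SpecialLinearGroup (Fin 3) (ZMod 7)
abbrev PSL := Matrix.ProjectiveSpecialLinearGroup (Fin 3) (ZMod 7)

def mkV (a b c : K) : V := ![a, b, c]

theorem eta (v : V) : v = mkV (v 0) (v 1) (v 2) := by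
  funext i
  fin_cases i <;> rfl

theorem mulVec3 (A : Matrix (Fin 3) (Fin 3) K) (v : V) (i : Fin 3) :
    (A *ᵥ v) i = A i 0 * v 0 + A i 1 * v 1 + A i 2 * v 2 := by
  simp [Matrix.mulVec, dotProduct, Fin.sum_univ_three]

theorem smul_def (A : SL) (v : V) : A • v = A.1 *ᵥ v := rfl

theorem smul_ne_zero (A : SL) (v : V) (hv : v ≠ 0) : A • v ≠ 0 := by
  intro h
  apply hv
  have : A⁻¹ • (A • v) = v := inv_smul_smul A v
  rw [← this, h, smul_zero]

theorem ncard_le (T : Set V) (c : ℕ) (F : Finset (K × K × K)) (hF : F.card ≤ c)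
    (h : ∀ v ∈ T, (v 0, v 1, v 2) ∈ F) : T.ncard ≤ c := by
  have hsub : T ⊆ (fun q : K × K × K => mkV q.1 q.2.1 q.2.2) '' (F : Set _) := by
    intro v hv
    exact ⟨_, h v hv, (eta v).symm⟩
  calc T.ncard ≤ ((fun q : K × K × K => mkV q.1 q.2.1 q.2.2) '' (F : Set _)).ncard :=
        Set.ncard_le_ncard hsub (Set.toFinite _)
    _ ≤ (F : Set (K × K × K)).ncard := Set.ncard_image_le (Set.toFinite _)
    _ = F.card := Set.ncard_coe_finset F
    _ ≤ c := hF

def e1 : V := mkV 1 0 0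
def e2 : V := mkV 0 1 0
def e3 : V := mkV 0 0 1

abbrev G1 := MulAction.stabilizer SL e1
abbrev G2 := MulAction.stabilizer G1 e2
abbrev G3 := MulAction.stabilizer G2 e3

theorem col0 (A : SL) (h : A • e1 = e1) (i : Fin 3) : A.1 i 0 = e1 i := by
  have := congrFun h i
  rw [smul_def, mulVec3] at this
  simpa [e1, mkV] using this

theorem col1 (A : SL) (h : A • e2 = e2) (i : Fin 3) : A.1 i 1 = e2 i := by
  have := congrFun h i
  rw [smul_def, mulVec3] at this
  simpa [e2, mkV] using this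

theorem col2 (A : SL) (h : A • e3 = e3) (i : Fin 3) : A.1 i 2 = e3 i := by
  have := congrFun h i
  rw [smul_def, mulVec3] at this
  simpa [e3, mkV] using this

theorem e1_ne : e1 ≠ 0 := fun h => by
  have := congrFun h 0
  revert this; decide

theorem tup_ne {v : V} (hv : v ≠ 0) : (v 0, v 1, v 2) ≠ ((0 : K), (0 : K), (0 : K)) := by
  intro h
  apply hv
  rw [eta v]
  simp only [Prod.mk.injEq] at h
  funext i
  fin_cases i <;> simp [mkV, h]

theorem step1 : Nat.card SL ≤ 342 * Nat.card G1 := by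
  apply Cfsg.Agent.Lib.Helper86.Sp4Card.card_le_mul_stab e1 342 {v : V | v ≠ 0} (Set.toFinite _)
  · apply ncard_le _ 342 (Finset.univ.filter (fun q : K × K × K => q ≠ (0, 0, 0)))
      (by decide +kernel)
    intro v hv
    rw [Finset.mem_filter]
    exact ⟨Finset.mem_univ _, tup_ne hv⟩
  · intro g
    exact smul_ne_zero g e1 e1_ne

theorem step2 : Nat.card G1 ≤ 336 * Nat.card G2 := by
  apply Cfsg.Agent.Lib.Helper86.Sp4Card.card_le_mul_stab e2 336 {v : V | ¬ (v 1 = 0 ∧ v 2 = 0)}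
    (Set.toFinite _)
  · apply ncard_le _ 336 (Finset.univ.filter (fun q : K × K × K => ¬ (q.2.1 = 0 ∧ q.2.2 = 0)))
      (by decide +kernel)
    intro v hv
    rw [Finset.mem_filter]
    exact ⟨Finset.mem_univ _, hv⟩
  · intro g
    have h1 : (g : SL) • e1 = e1 := MulAction.mem_stabilizer_iff.1 g.2
    change ¬ (((g : SL) • e2) 1 = 0 ∧ ((g : SL) • e2) 2 = 0)
    rintro ⟨ha, hb⟩
    have hw : (g : SL) • e2 = (((g : SL) • e2) 0) • e1 := by
      funext i
      fin_cases i
      · simp [e1, mkV]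
      · simpa [e1, mkV] using ha
      · simpa [e1, mkV] using hb
    have hw2 : (g : SL) • e2 = (g : SL) • ((((g : SL) • e2) 0) • e1) := by
      rw [smul_comm, h1]
      exact hw
    have hw3 := congrFun (smul_left_cancel _ hw2) 1
    simp [e1, e2, mkV] at hw3
    exact absurd hw3 (by decide)

theorem step3 : Nat.card G2 ≤ 49 * Nat.card G3 := by
  apply Cfsg.Agent.Lib.Helper86.Sp4Card.card_le_mul_stab e3 49 {v : V | v 2 = 1} (Set.toFinite _)
  · apply ncard_le _ 49 (Finset.univ.filter (fun q : K × K × K => q.2.2 = 1)) (by decide +kernel)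
    intro v hv
    rw [Finset.mem_filter]
    exact ⟨Finset.mem_univ _, hv⟩
  · intro g
    have h1 : (g.1.1 : SL) • e1 = e1 := MulAction.mem_stabilizer_iff.1 g.1.2
    have h2 : (g.1.1 : SL) • e2 = e2 := MulAction.mem_stabilizer_iff.1 g.2
    change ((g.1.1 : SL) • e3) 2 = 1
    have hdet := (g.1.1 : SL).2
    rw [Matrix.det_fin_three, col0 _ h1 0, col0 _ h1 1, col0 _ h1 2, col1 _ h2 0, col1 _ h2 1,
      col1 _ h2 2] at hdet
    rw [smul_def, mulVec3]
    simp only [e1, e2, e3, mkV, Matrix.cons_val_zero, Matrix.cons_val_one, Matrix.cons_val_two,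
      Matrix.head_cons, Matrix.tail_cons] at hdet ⊢
    simpa using hdet

theorem eq_one_of_fix (A : SL) (h1 : A • e1 = e1) (h2 : A • e2 = e2) (h3 : A • e3 = e3) :
    A = 1 := by
  apply Subtype.ext
  change A.1 = 1
  ext i j
  fin_cases j
  · rw [show (⟨0, by norm_num⟩ : Fin 3) = 0 from rfl, col0 A h1 i]
    fin_cases i <;> rfl
  · rw [show (⟨1, by norm_num⟩ : Fin 3) = 1 from rfl, col1 A h2 i]
    fin_cases i <;> rfl
  · rw [show (⟨2, by norm_num⟩ : Fin 3) = 2 from rfl, col2 A h3 i]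
    fin_cases i <;> rfl

theorem card_G3 : Nat.card G3 = 1 := by
  have : G3 = ⊥ := by
    rw [Subgroup.eq_bot_iff_forall]
    intro g hg
    have h1 : (g.1.1 : SL) • e1 = e1 := MulAction.mem_stabilizer_iff.1 g.1.2
    have h2 : (g.1.1 : SL) • e2 = e2 := MulAction.mem_stabilizer_iff.1 g.2
    have h3 : (g.1.1 : SL) • e3 = e3 := MulAction.mem_stabilizer_iff.1 hg
    have := eq_one_of_fix _ h1 h2 h3
    apply Subtype.ext
    apply Subtype.ext
    exact this
  rw [this, Subgroup.card_bot]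

/-- the order of `SL₃(7)` is at most `5630688` -/
theorem card_SL_le : Nat.card SL ≤ 5630688 := by
  have h1 := step1
  have h2 := step2
  have h3 := step3
  rw [card_G3] at h3
  omega

end Cfsg.Agent.Lib.Helper86.SL37
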